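import Cfsg.Agent.S2543

/-!
# S5925 box L END: the group side (helper332)

`ρ : G →* End_k V`, `P : V → Prop` invariant; `S ≤ G`, `A, B ≤ S`; `q_A` spans the fixed vectors of `A` satisfying `P`.
* `orb ρ S q` : the span of the `S`-orbit of `q`; `orb_stable`, `orb_eq` (irreducible case);
* `line_move` : `g A g⁻¹ = B` gives `ρ(g) q_A ∈ k q_B`;
* `map_orb_le`, `stable_sum` : for `h` normalising `S ≅ PSL₂(11)`, `A, B` of type `A₅`, `orb q_A ⊔ orb q_B` is `h`-stable;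
* `map_eq_of_le`, `stable_closure` : tools.
-/

set_option autoImplicit false

namespace Cfsg.Agent.H332.E83

open Submodule
open scoped Pointwise

variable {k G V : Type*} [Field k] [Group G] [AddCommGroup V] [Module k V] (ρ : G →* Module.End k V)

/-- the span of the `S`-orbit of `q` -/
def orb (S : Subgroup G) (q : V) : Submodule k V := span k {v | ∃ s ∈ S, v = ρ s q}

variable {ρ} {S A B : Subgroup G} {q qA qB : V}

theorem rho_mul (a b : G) (v : V) : ρ a (ρ b v) = ρ (a * b) v := by rw [map_mul]; rfl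

theorem rho_inv (a : G) (v : V) : ρ a⁻¹ (ρ a v) = v := by rw [rho_mul, inv_mul_cancel, map_one]; rfl

theorem mem_orb {s : G} (hs : s ∈ S) : ρ s q ∈ orb ρ S q := subset_span ⟨s, hs, rfl⟩

theorem self_mem_orb : q ∈ orb ρ S q := by
  have h : ρ 1 q ∈ orb ρ S q := mem_orb S.one_mem
  rwa [map_one] at h

theorem orb_le {U : Submodule k V} (h : ∀ s ∈ S, ρ s q ∈ U) : orb ρ S q ≤ U := by
  unfold orb
  rw [span_le]
  rintro _ ⟨s, hs, rfl⟩
  exact h s hs

/-- the orbit span is `S`-stable -/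
theorem orb_stable {s : G} (hs : s ∈ S) : (orb ρ S q).map (ρ s) ≤ orb ρ S q := by
  unfold orb
  rw [map_span, span_le]
  rintro _ ⟨_, ⟨x, hx, rfl⟩, rfl⟩
  show ρ s (ρ x q) ∈ orb ρ S q
  rw [rho_mul]
  exact mem_orb (S.mul_mem hs hx)

/-- irreducible case: the orbit span is everything -/
theorem orb_eq {U : Submodule k V} (hq : q ∈ U) (hq0 : q ≠ 0) (hU : ∀ s ∈ S, U.map (ρ s) ≤ U)
    (hirr : ∀ W : Submodule k V, W ≤ U → (∀ s ∈ S, W.map (ρ s) ≤ W) → W = ⊥ ∨ W = U) : orb ρ S q = U := by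
  rcases hirr (orb ρ S q) (orb_le fun s hs => hU s hs ⟨q, hq, rfl⟩) (fun s hs => orb_stable hs) with h | h
  · exfalso
    have h1 : q ∈ orb ρ S q := self_mem_orb
    rw [h, mem_bot] at h1
    exact hq0 h1
  · exact h

/-- `ρ(g) q_A` is on the line of `B`, if `g A g⁻¹ ⊇ B` -/
theorem line_move {P : V → Prop} (hP : ∀ g v, P v → P (ρ g v)) (fA : ∀ a ∈ A, ρ a qA = qA) (PA : P qA)
    (uB : ∀ v, (∀ b ∈ B, ρ b v = v) → P v → ∃ c : k, v = c • qB) {g : G} (hg : ∀ b ∈ B, g⁻¹ * b * g ∈ A) :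
    ∃ c : k, ρ g qA = c • qB := by
  refine uB _ (fun b hb => ?_) (hP g qA PA)
  have h1 : b * g = g * (g⁻¹ * b * g) := by group
  rw [rho_mul, h1, ← rho_mul, fA _ (hg b hb)]

/-- `h` normalises `S` and maps `A` to an `S`-conjugate of `B` -/
theorem map_orb_le {P : V → Prop} (hP : ∀ g v, P v → P (ρ g v)) (fA : ∀ a ∈ A, ρ a qA = qA) (PA : P qA)
    (uB : ∀ v, (∀ b ∈ B, ρ b v = v) → P v → ∃ c : k, v = c • qB) {h s : G} (hs : s ∈ S)
    (hS : ∀ x ∈ S, h * x * h⁻¹ ∈ S) (hg : ∀ b ∈ B, (s * h)⁻¹ * b * (s * h) ∈ A) :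
    (orb ρ S qA).map (ρ h) ≤ orb ρ S qB := by
  obtain ⟨c, hc⟩ := line_move hP fA PA uB hg
  have h1 : ρ h qA = c • ρ s⁻¹ qB := by
    rw [← map_smul, ← hc, rho_mul, inv_mul_cancel_left]
  unfold orb
  rw [map_span, span_le]
  rintro _ ⟨_, ⟨x, hx, rfl⟩, rfl⟩
  show ρ h (ρ x qA) ∈ orb ρ S qB
  have h2 : h * x = (h * x * h⁻¹) * h := by group
  rw [rho_mul, h2, ← rho_mul, h1, map_smul, rho_mul]
  exact smul_mem _ _ (mem_orb (S.mul_mem (hS x hx) (S.inv_mem hs)))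

/-- conjugate subgroups have the same orbit span -/
theorem orb_le_of_conj {P : V → Prop} (hP : ∀ g v, P v → P (ρ g v)) (fA : ∀ a ∈ A, ρ a qA = qA) (PA : P qA)
    (uB : ∀ v, (∀ b ∈ B, ρ b v = v) → P v → ∃ c : k, v = c • qB) {s : G} (hs : s ∈ S)
    (hg : ∀ b ∈ B, s⁻¹ * b * s ∈ A) : orb ρ S qA ≤ orb ρ S qB := by
  have h1 := map_orb_le (S := S) hP fA PA uB (h := 1) hs (fun x hx => by rwa [one_mul, inv_one, mul_one])
    (by rwa [mul_one])
  rw [map_one] at h1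
  intro v hv
  exact h1 ⟨v, hv, rfl⟩

/-- stability under all elements of a subgroup gives equality -/
theorem map_eq_of_le {H : Subgroup G} {W : Submodule k V} (h : ∀ g ∈ H, W.map (ρ g) ≤ W) {g : G} (hg : g ∈ H) :
    W.map (ρ g) = W := by
  refine le_antisymm (h g hg) fun w hw => ?_
  refine ⟨ρ g⁻¹ w, h _ (H.inv_mem hg) ⟨w, hw, rfl⟩, ?_⟩
  rw [rho_mul, mul_inv_cancel, map_one]
  rfl

/-- stability under generators (`ρ(g) W = W`) -/
theorem stable_closure {X : Set G} {W : Submodule k V} (h : ∀ g ∈ X, W.map (ρ g) = W) {g : G}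
    (hg : g ∈ Subgroup.closure X) : W.map (ρ g) = W := by
  induction hg using Subgroup.closure_induction with
  | mem x hx => exact h x hx
  | one => rw [map_one]; exact Submodule.map_id W
  | mul x y _ _ hx hy =>
    have h1 : ρ (x * y) = (ρ x).comp (ρ y) := map_mul ρ x y
    rw [h1, Submodule.map_comp, hy, hx]
  | inv x _ hx =>
    conv_lhs => rw [← hx]
    rw [← Submodule.map_comp]
    have h1 : (ρ x⁻¹).comp (ρ x) = LinearMap.id := by
      ext v
      exact rho_inv x v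
    rw [h1, Submodule.map_id]

section classes

variable {F : Type*} [Field F] [Fintype F]

/-- `S ≅ PSL₂(11)`: two nonconjugate subgroups of type `A₅` represent all -/
theorem cls (hF : Fintype.card F = 11) (e : S ≃* Matrix.ProjectiveSpecialLinearGroup (Fin 2) F) (hA : A ≤ S) (hB : B ≤ S)
    (eA : Nonempty (A ≃* alternatingGroup (Fin 5))) (eB : Nonempty (B ≃* alternatingGroup (Fin 5)))
    (hn : ¬ ∃ s ∈ S, ∀ x, x ∈ B ↔ s⁻¹ * x * s ∈ A) {C : Subgroup G} (hC : C ≤ S)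
    (eC : Nonempty (C ≃* alternatingGroup (Fin 5))) :
    (∃ s ∈ S, ∀ x, x ∈ A ↔ s⁻¹ * x * s ∈ C) ∨ ∃ s ∈ S, ∀ x, x ∈ B ↔ s⁻¹ * x * s ∈ C := by
  obtain ⟨-, H, K, -, -, -, hall⟩ := Cfsg.Agent.S2543.result hF
  -- the image of a subgroup of `S`
  let im : Subgroup G → Subgroup (Matrix.ProjectiveSpecialLinearGroup (Fin 2) F) :=
    fun X => (X.subgroupOf S).map e.toMonoidHom
  have hiso : ∀ X : Subgroup G, X ≤ S → Nonempty (X ≃* alternatingGroup (Fin 5)) →
      Nonempty (im X ≃* alternatingGroup (Fin 5)) := by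
    rintro X hX ⟨f⟩
    exact ⟨((X.subgroupOf S).equivMapOfInjective _ e.injective).symm.trans
      ((Subgroup.subgroupOfEquivOfLe hX).trans f)⟩
  have hmem : ∀ (X : Subgroup G) (x : S), e x ∈ im X ↔ (x : G) ∈ X := by
    intro X x
    constructor
    · rintro ⟨y, hy, hxy⟩
      have : y = x := e.injective hxy
      rw [← this]
      exact hy
    · intro h
      exact ⟨x, h, rfl⟩
  -- conjugate images give conjugate subgroups
  have back : ∀ X Y : Subgroup G, X ≤ S → Y ≤ S → ∀ g : Matrix.ProjectiveSpecialLinearGroup (Fin 2) F,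
      MulAut.conj g • im X = im Y →
      ∃ s ∈ S, ∀ x, x ∈ Y ↔ s⁻¹ * x * s ∈ X := by
    intro X Y hX hY g hg
    refine ⟨(e.symm g : S), (e.symm g).2, fun x => ?_⟩
    constructor
    · intro hx
      have h1 : e ⟨x, hY hx⟩ ∈ MulAut.conj g • im X := by
        rw [hg]
        exact (hmem Y _).2 hx
      rw [Subgroup.mem_pointwise_smul_iff_inv_smul_mem] at h1
      have h2 : (MulAut.conj g)⁻¹ • e ⟨x, hY hx⟩ = e ((e.symm g)⁻¹ * ⟨x, hY hx⟩ * e.symm g) := by
        rw [← map_inv, MulAut.smul_def, MulAut.conj_apply, inv_inv, map_mul, map_mul, map_inv, e.apply_symm_apply]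
      rw [h2] at h1
      exact (hmem X _).1 h1
    · intro hx
      have hxS : x ∈ S := by
        have h1 := S.mul_mem (S.mul_mem (e.symm g).2 (hX hx)) (S.inv_mem (e.symm g).2)
        have h2 : (e.symm g : G) * ((e.symm g : G)⁻¹ * x * (e.symm g : G)) * (e.symm g : G)⁻¹ = x := by group
        rwa [h2] at h1
      have h1 : e ((e.symm g)⁻¹ * ⟨x, hxS⟩ * e.symm g) ∈ im X := (hmem X _).2 hx
      have h2 : (MulAut.conj g)⁻¹ • e ⟨x, hxS⟩ = e ((e.symm g)⁻¹ * ⟨x, hxS⟩ * e.symm g) := by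
        rw [← map_inv, MulAut.smul_def, MulAut.conj_apply, inv_inv, map_mul, map_mul, map_inv, e.apply_symm_apply]
      rw [← h2, ← Subgroup.mem_pointwise_smul_iff_inv_smul_mem, hg] at h1
      exact (hmem Y _).1 h1
  obtain ⟨a, ha⟩ := hall (im A) (hiso A hA eA)
  obtain ⟨b, hb⟩ := hall (im B) (hiso B hB eB)
  obtain ⟨c, hc⟩ := hall (im C) (hiso C hC eC)
  have tr : ∀ (X Y : Subgroup (Matrix.ProjectiveSpecialLinearGroup (Fin 2) F))
      (x y : Matrix.ProjectiveSpecialLinearGroup (Fin 2) F)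
      (Z : Subgroup (Matrix.ProjectiveSpecialLinearGroup (Fin 2) F)),
      MulAut.conj x • X = Z → MulAut.conj y • Y = Z → MulAut.conj (y⁻¹ * x) • X = Y := by
    intro X Y x y Z h1 h2
    rw [map_mul, mul_smul, h1, ← h2, ← mul_smul, ← map_mul, inv_mul_cancel, map_one, one_smul]
  have hnab : ∀ Z, MulAut.conj a • im A = Z → MulAut.conj b • im B = Z → False := by
    intro Z h1 h2
    exact hn (back A B hA hB _ (tr _ _ _ _ Z h1 h2))
  rcases ha with ha | ha <;> rcases hb with hb | hb <;> rcases hc with hc | hc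
  · exact (hnab _ ha hb).elim
  · exact (hnab _ ha hb).elim
  · exact Or.inl (back C A hC hA _ (tr _ _ _ _ _ hc ha))
  · exact Or.inr (back C B hC hB _ (tr _ _ _ _ _ hc hb))
  · exact Or.inr (back C B hC hB _ (tr _ _ _ _ _ hc hb))
  · exact Or.inl (back C A hC hA _ (tr _ _ _ _ _ hc ha))
  · exact (hnab _ ha hb).elim
  · exact (hnab _ ha hb).elim

/-- **The normaliser of `S ≅ PSL₂(11)` stabilises `⟨S q_A⟩ + ⟨S q_B⟩`.** `A`, `B ≤ S` of type `A₅`, `q_A`, `q_B` span the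
fixed vectors with the property `P`; `⟨S q_A⟩ ≠ ⟨S q_B⟩`. -/
theorem stable_sum {P : V → Prop} (hP : ∀ g v, P v → P (ρ g v)) (hF : Fintype.card F = 11)
    (e : S ≃* Matrix.ProjectiveSpecialLinearGroup (Fin 2) F) (hA : A ≤ S) (hB : B ≤ S)
    (eA : Nonempty (A ≃* alternatingGroup (Fin 5))) (eB : Nonempty (B ≃* alternatingGroup (Fin 5)))
    (fA : ∀ a ∈ A, ρ a qA = qA) (fB : ∀ b ∈ B, ρ b qB = qB) (PA : P qA) (PB : P qB)
    (uA : ∀ v, (∀ a ∈ A, ρ a v = v) → P v → ∃ c : k, v = c • qA)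
    (uB : ∀ v, (∀ b ∈ B, ρ b v = v) → P v → ∃ c : k, v = c • qB)
    (hne : orb ρ S qA ≠ orb ρ S qB) {h : G} (hh : ∀ x ∈ S, h * x * h⁻¹ ∈ S) :
    (orb ρ S qA ⊔ orb ρ S qB).map (ρ h) ≤ orb ρ S qA ⊔ orb ρ S qB := by
  have hn : ¬ ∃ s ∈ S, ∀ x, x ∈ B ↔ s⁻¹ * x * s ∈ A := by
    rintro ⟨s, hs, hx⟩
    apply hne
    apply le_antisymm
    · exact orb_le_of_conj hP fA PA uB hs fun b hb => (hx b).1 hb
    · refine orb_le_of_conj hP fB PB uA (S.inv_mem hs) fun a ha => (hx _).2 ?_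
      have h1 : s⁻¹ * (s⁻¹⁻¹ * a * s⁻¹) * s = a := by group
      rwa [h1]
  -- the image of a subgroup
  have key : ∀ (X : Subgroup G), X ≤ S → Nonempty (X ≃* alternatingGroup (Fin 5)) → ∀ qX : V, (∀ a ∈ X, ρ a qX = qX) →
      P qX → (orb ρ S qX).map (ρ h) ≤ orb ρ S qA ⊔ orb ρ S qB := by
    intro X hX eX qX fX PX
    have hC : X.map (MulAut.conj h).toMonoidHom ≤ S := by
      rintro _ ⟨x, hx, rfl⟩
      exact hh x (hX hx)
    have eC : Nonempty ((X.map (MulAut.conj h).toMonoidHom : Subgroup G) ≃* alternatingGroup (Fin 5)) := by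
      obtain ⟨f⟩ := eX
      exact ⟨(X.equivMapOfInjective _ (MulAut.conj h).injective).symm.trans f⟩
    have conv : ∀ (Y : Subgroup G) (s : G), (∀ x, x ∈ Y ↔ s⁻¹ * x * s ∈ X.map (MulAut.conj h).toMonoidHom) →
        ∀ y ∈ Y, (s * h)⁻¹ * y * (s * h) ∈ X := by
      intro Y s hs y hy
      obtain ⟨x, hx, hxe⟩ := (hs y).1 hy
      have h1 : h * x * h⁻¹ = s⁻¹ * y * s := hxe
      have h2 : (s * h)⁻¹ * y * (s * h) = x := by
        calc (s * h)⁻¹ * y * (s * h) = h⁻¹ * (s⁻¹ * y * s) * h := by group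
          _ = h⁻¹ * (h * x * h⁻¹) * h := by rw [h1]
          _ = x := by group
      rw [h2]
      exact hx
    rcases cls hF e hA hB eA eB hn hC eC with ⟨s, hs, h1⟩ | ⟨s, hs, h1⟩
    · exact (map_orb_le hP fX PX uA hs hh (conv A s h1)).trans le_sup_left
    · exact (map_orb_le hP fX PX uB hs hh (conv B s h1)).trans le_sup_right
  rw [Submodule.map_sup, sup_le_iff]
  exact ⟨key A hA eA qA fA PA, key B hB eB qB fB PB⟩

end classes

end Cfsg.Agent.H332.E83
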